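import Cfsg.Agent.Lib.Hup.SL23
import Cfsg.Agent.Lib.Hup.Gamma
import Cfsg.Agent.S0688
import Cfsg.Agent.Lib.Zassen.RegS
import Cfsg.Agent.Lib.Zassen.Insol

/-!
# Solvable regular linear groups
-/

set_option autoImplicit false
set_option linter.unusedSectionVars false
set_option linter.style.haveILetI false

namespace Cfsg.Agent.Lib.Hup.RegMain

open Module Subgroup
open Cfsg.Agent.Lib.Hup.Ann Cfsg.Agent.Lib.Hup.Gamma Cfsg.Agent.Lib.Hup.Index2
  Cfsg.Agent.Lib.Hup.SL23
open Cfsg.Agent.Lib.Zassen.SolQ Cfsg.Agent.Lib.Zassen.QuotU Cfsg.Agent.Lib.Zassen.SolMain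
  Cfsg.Agent.Lib.Zassen.Basic Cfsg.Agent.Lib.Zassen.Unique Cfsg.Agent.Lib.Zassen.Semi
  Cfsg.Agent.Lib.Zassen.CtxOf Cfsg.Agent.Lib.Zassen.Frames
open Cfsg.Agent.Lib.PermMod.RegLin Cfsg.Agent.Lib.PermMod.MinNormal
open Cfsg.Agent.Lib.Zassen.RegS

universe u

/-- The Sylow structure of a group acting without fixed points. -/
theorem H_of_act {K G : Type*} [Group K] [Finite K] [Nontrivial K] [Group G] [Finite G]
    [Nontrivial G] (act : G →* MulAut K)
    (hfpf : ∀ g : G, g ≠ 1 → ∀ k : K, act g k = k → k = 1) : H2 G ∧ Hodd G := by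
  by_cases h2 : 2 ∣ Nat.card G
  · obtain ⟨z, hz⟩ := exists_prime_orderOf_dvd_card' (p := 2) (G := G) h2
    have hz2 : z ^ 2 = 1 := by rw [← hz]; exact pow_orderOf_eq_one z
    have hz1 : z ≠ 1 := by
      rintro rfl
      rw [orderOf_one] at hz
      omega
    refine comm_ctx (abelian_of_even act hfpf h2) act hfpf hz2 hz1 ?_
    intro E V _ _ _ _ _ _ r _ _ ρ C
    constructor
    · intro Q hQ
      rcases subgroup_alt C.fpf Q hQ with h | ⟨-, h⟩
      · exact Or.inl h
      · exact Or.inr h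
    · intro q hq hq2 Q hQ
      haveI : Fact q.Prime := ⟨hq⟩
      rcases subgroup_alt C.fpf Q hQ with h | ⟨h, -⟩
      · exact h
      · exact absurd h hq2
  · haveI := isZGroup_of_odd act hfpf h2
    constructor
    · intro Q hQ
      exact Or.inl hQ.isCyclic_of_isZGroup
    · intro q hq _ Q hQ
      haveI : Fact q.Prime := ⟨hq⟩
      exact hQ.isCyclic_of_isZGroup

variable {p : ℕ} [hp : Fact p.Prime] {V : Type u} [AddCommGroup V] [Module (ZMod p) V] [Finite V]
  {H : Subgroup (V ≃ₗ[ZMod p] V)}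

/-- Abelian normal irreducible subgroups make the space a line. -/
theorem line_of_irred [Nontrivial V] (htr : Trans H) (A : Subgroup H) (hAn : A.Normal)
    (hAc : IsMulCommutative A)
    (hirr : ∀ W : Submodule (ZMod p) V,
      (∀ a ∈ A, ∀ v ∈ W, ((a : H) : V ≃ₗ[ZMod p] V) v ∈ W) → W = ⊥ ∨ W = ⊤) :
    ∃ (K : Type u) (_ : Field K) (_ : Finite K) (_ : Algebra (ZMod p) K) (_ : Module K V)
      (_ : IsScalarTower (ZMod p) K V) (Θ : H →* (K ≃ₐ[ZMod p] K)),
      (∀ (h : H) (k : K) (v : V), (h : V ≃ₗ[ZMod p] V) (k • v) = Θ h k • (h : V ≃ₗ[ZMod p] V) v) ∧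
      finrank K V = 1 := by
  obtain ⟨K, _, _, _, _, _, Θ, h1, h2, -⟩ := exists_field htr A hAn hAc
  refine ⟨K, inferInstance, inferInstance, inferInstance, inferInstance, inferInstance, Θ, h2, ?_⟩
  obtain ⟨v₀, hv₀⟩ := exists_ne (0 : V)
  let W : Submodule (ZMod p) V := (Submodule.span K {v₀}).restrictScalars (ZMod p)
  have hW : ∀ v, v ∈ W ↔ ∃ k : K, k • v₀ = v := fun v => by
    change v ∈ Submodule.span K {v₀} ↔ _
    rw [Submodule.mem_span_singleton]
  have hinv : ∀ a ∈ A, ∀ v ∈ W, ((a : H) : V ≃ₗ[ZMod p] V) v ∈ W := by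
    intro a ha v hv
    obtain ⟨k, rfl⟩ := (hW v).mp hv
    obtain ⟨c, hc⟩ := h1 a ha
    rw [hc, smul_smul]
    exact (hW _).mpr ⟨_, rfl⟩
  rcases hirr W hinv with h | h
  · have : v₀ ∈ W := (hW v₀).mpr ⟨1, one_smul _ _⟩
    rw [h, Submodule.mem_bot] at this
    exact absurd this hv₀
  · rw [finrank_eq_one_iff_of_nonzero' v₀ hv₀]
    intro w
    have : w ∈ W := by rw [h]; exact Submodule.mem_top
    exact (hW w).mp this

theorem trans_of_reg (hreg : Reg H) : Trans H := fun v w hv hw => (hreg v w hv hw).exists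

/-- Part A. -/
theorem reg_A [Nontrivial V] (hreg : Reg H) (hsolv : Group.IsSolvable H) :
    (∃ (F : Type) (_ : Field F) (_ : Fintype F) (e : V ≃+ F),
      ∀ h : H, ∃ (a : F) (σ : F ≃+* F), ∀ v : V, e ((h : V ≃ₗ[ZMod p] V) v) = a * σ (e v)) ∨
    Nat.card V ∈ ({25, 49, 121, 529} : Set ℕ) := by
  by_cases hI : ∀ A : Subgroup H, A.Normal → IsCyclic A → ∃ W : Submodule (ZMod p) V, W ≠ ⊥ ∧ W ≠ ⊤ ∧
      ∀ a ∈ A, ∀ v ∈ W, ((a : H) : V ≃ₗ[ZMod p] V) v ∈ W
  · right
    have := Cfsg.Agent.S0688.result H hreg hI hsolv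
    simpa using this
  · left
    push Not at hI
    obtain ⟨A, hAn, hAc, hA⟩ := hI
    haveI := hAc
    have hAc' : IsMulCommutative A := ⟨⟨fun a b => mul_comm' a b⟩⟩
    obtain ⟨K, _, _, _, _, _, Θ, h2, h3⟩ := line_of_irred (trans_of_reg hreg) A hAn hAc' (by
      intro W hW
      by_contra hne
      push Not at hne
      obtain ⟨a, ha, v, hv, hnot⟩ := hA W hne.1 hne.2
      exact hnot (hW a ha v hv))
    exact gamma_of_line Θ h2 h3

/-- A cyclic quotient of even order gives a subgroup of index two. -/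
theorem index2_of_surj_cyclic {G Y : Type*} [Group G] [Group Y] [Finite Y] [IsCyclic Y]
    (f : G →* Y) (hf : Function.Surjective f) (h2 : 2 ∣ Nat.card Y) :
    ∃ N : Subgroup G, N.Normal ∧ N.index = 2 := by
  classical
  letI : CommGroup Y := IsCyclic.commGroup
  let N₀ : Subgroup Y := (powMonoidHom 2 : Y →* Y).range
  have hN₀ : N₀.index = 2 := by
    have := IsCyclic.index_powMonoidHom_range (G := Y) 2
    rw [this]
    exact Nat.gcd_eq_right h2
  refine ⟨N₀.comap f, inferInstance, ?_⟩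
  rw [Subgroup.index_comap_of_surjective N₀ hf, hN₀]

theorem H2_sub {G : Type*} [Group G] (h2 : H2 G) (K : Subgroup G) : H2 K := by
  intro Q hQ
  let e : Q ≃* Q.map K.subtype := Q.equivMapOfInjective K.subtype K.subtype_injective
  rcases h2 (Q.map K.subtype) (hQ.of_equiv e) with h | ⟨n, ⟨e'⟩⟩
  · left
    exact isCyclic_of_surjective e.symm e.symm.surjective
  · right
    exact ⟨n, ⟨e.trans e'⟩⟩

/-- The group of order `120`. -/
theorem case120 {G : Type*} [Group G] [Finite G] (hG : Nat.card G = 120)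
    (f : G →* alternatingGroup (Fin 4)) (hf : Function.Surjective f) (h2 : H2 G) :
    (∃ N : Subgroup G, N.Normal ∧ N.index = 2) ∨
      Nonempty (G ≃* SLtt × Multiplicative (ZMod 5)) := by
  classical
  by_cases hind : ∃ N : Subgroup G, N.Normal ∧ N.index = 2
  · exact Or.inl hind
  right
  haveI : Fact (Nat.Prime 5) := ⟨by norm_num⟩
  let M : Subgroup G := f.ker
  have hM : Nat.card M = 10 := by
    have h := f.ker.card_mul_index
    rw [index_of_surj f hf, a4_card, hG] at h
    change Nat.card M * 12 = 120 at h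
    omega
  let P₀ : Sylow 5 M := default
  have hP₀ : Nat.card P₀ = 5 := by
    have h1 : 5 ^ 1 ∣ Nat.card P₀ := P₀.pow_dvd_card_of_pow_dvd_card (by rw [hM]; norm_num)
    have h3 : Nat.card P₀ ∣ 10 := hM ▸ Subgroup.card_subgroup_dvd_card _
    obtain ⟨k, hk⟩ := IsPGroup.iff_card.mp P₀.isPGroup'
    rw [hk] at h1 h3 ⊢
    have hk1 : k = 1 := by
      have h4 : 1 ≤ k := (Nat.pow_dvd_pow_iff_le_right (by norm_num)).mp h1
      by_contra hne
      have h5 : 2 ≤ k := by omega
      have h6 : 5 ^ 2 ∣ 5 ^ k := pow_dvd_pow 5 h5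
      have h7 := h6.trans h3
      norm_num at h7
    rw [hk1]
    norm_num
  have hP₀idx : (P₀ : Subgroup M).index = 2 := by
    have h := (P₀ : Subgroup M).card_mul_index
    rw [hP₀, hM] at h
    omega
  have hn : Nat.card (Sylow 5 M) = 1 := by
    have h1 := card_sylow_modEq_one 5 M
    have h3 := P₀.card_dvd_index
    rw [hP₀idx] at h3
    have h4 : Nat.card (Sylow 5 M) ≤ 2 := Nat.le_of_dvd (by norm_num) h3
    have h5 : 0 < Nat.card (Sylow 5 M) := Nat.card_pos
    interval_cases h6 : Nat.card (Sylow 5 M)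
    · rfl
    · exact absurd h1 (by decide)
  haveI : Subsingleton (Sylow 5 M) := (Nat.card_eq_one_iff_unique.mp hn).1
  have hP₀n : (P₀ : Subgroup M).Normal := P₀.normal_of_subsingleton
  haveI : (P₀ : Subgroup M).Characteristic := Sylow.characteristic_of_normal P₀ hP₀n
  let P₅ : Subgroup G := (P₀ : Subgroup M).map M.subtype
  haveI hP₅n : P₅.Normal := inferInstance
  have hP₅card : Nat.card P₅ = 5 := by
    change Nat.card ((P₀ : Subgroup M).map M.subtype) = 5
    rw [Subgroup.card_map_of_injective M.subtype_injective]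
    exact hP₀
  have hP₅M : P₅ ≤ M := by
    rintro _ ⟨x, -, rfl⟩
    exact x.2
  haveI hP₅c : IsCyclic P₅ := isCyclic_of_prime_card hP₅card
  let conj : G →* MulAut P₅ := MulAut.conjNormal
  have hcardAut : Nat.card (MulAut P₅) = 4 := by
    rw [IsCyclic.card_mulAut, hP₅card]
    decide
  haveI hcycAut : IsCyclic (MulAut P₅) := by
    have e := IsCyclic.mulAutMulEquiv P₅
    rw [hP₅card] at e
    exact isCyclic_of_surjective e.symm e.symm.surjective
  have htriv : ∀ g, conj g = 1 := by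
    by_contra hne
    push Not at hne
    obtain ⟨g, hg⟩ := hne
    apply hind
    refine index2_of_surj_cyclic conj.rangeRestrict conj.rangeRestrict_surjective ?_
    have h1 : Nat.card conj.range ∣ 4 := hcardAut ▸ Subgroup.card_subgroup_dvd_card _
    have h3 : Nat.card conj.range ≠ 1 := by
      intro h
      have := Subgroup.card_eq_one.mp h
      have h4 : conj g ∈ conj.range := ⟨g, rfl⟩
      rw [this, Subgroup.mem_bot] at h4
      exact hg h4
    have h4 : Nat.card conj.range ≤ 4 := Nat.le_of_dvd (by norm_num) h1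
    have h5 : 0 < Nat.card conj.range := Nat.card_pos
    interval_cases h6 : Nat.card conj.range
    · exact absurd rfl h3
    · norm_num
    · norm_num at h1
    · norm_num
  have hcen : ∀ g : G, ∀ x ∈ P₅, g * x = x * g := by
    intro g x hx
    have h1 := MulAut.conjNormal_apply (H := P₅) g ⟨x, hx⟩
    change (((conj g) ⟨x, hx⟩ : P₅) : G) = _ at h1
    rw [htriv] at h1
    have h3 : x = g * x * g⁻¹ := h1
    rw [eq_mul_inv_iff_mul_eq] at h3
    exact h3.symm
  -- the complement
  have hidx : P₅.index = 24 := by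
    have h := P₅.card_mul_index
    rw [hP₅card, hG] at h
    omega
  obtain ⟨K₀, hcompl⟩ := Subgroup.exists_right_complement'_of_coprime (N := P₅)
    (by rw [hP₅card, hidx]; norm_num)
  have hK₀ : Nat.card K₀ = 24 := by
    have h := hcompl.card_mul_card
    rw [hP₅card, hG] at h
    omega
  let f₀ : K₀ →* alternatingGroup (Fin 4) := f.comp K₀.subtype
  have hf₀ : Function.Surjective f₀ := by
    intro y
    obtain ⟨g, rfl⟩ := hf y
    obtain ⟨⟨x, k⟩, hxk⟩ := hcompl.2 g
    refine ⟨k, ?_⟩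
    change f k = f g
    have hxk' : (x : G) * k = g := hxk
    have hx1 : f x = 1 := hP₅M x.2
    rw [← hxk', map_mul, hx1, one_mul]
  have hf₀k : Nat.card f₀.ker = 2 := by
    have h := f₀.ker.card_mul_index
    rw [index_of_surj f₀ hf₀, a4_card, hK₀] at h
    omega
  obtain ⟨e₁⟩ := sl23_of f₀ hf₀ hf₀k (H2_sub h2 K₀)
  obtain ⟨e₂⟩ := Cfsg.Agent.Lib.Zassen.Insol.mulEquiv_zmod_of_card (G := P₅) (n := 5) (by norm_num) hP₅card
  obtain ⟨e₃⟩ := Cfsg.Agent.Lib.Zassen.Insol.prod_iso K₀ P₅
    (by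
      have := hcompl.disjoint
      rw [disjoint_iff, inf_comm] at this
      exact this)
    (fun s _ x hx => hcen s x hx)
  have hsup : K₀ ⊔ P₅ = ⊤ := by
    rw [sup_comm]
    exact hcompl.sup_eq_top
  let e₄ : ↥(K₀ ⊔ P₅) ≃* G := (MulEquiv.subgroupCongr hsup).trans Subgroup.topEquiv
  exact ⟨e₄.symm.trans (e₃.symm.trans (MulEquiv.prodCongr e₁ e₂))⟩

/-- The absence of lines when `Alt(4)` is a quotient. -/
theorem not_line_of_A4 [Nontrivial V] (f : H →* alternatingGroup (Fin 4))
    (hf : Function.Surjective f) {K : Type u} [Field K] [Finite K] [Algebra (ZMod p) K] [Module K V]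
    [IsScalarTower (ZMod p) K V] (Θ : H →* (K ≃ₐ[ZMod p] K))
    (h2 : ∀ (h : H) (k : K) (v : V), (h : V ≃ₗ[ZMod p] V) (k • v) = Θ h k • (h : V ≃ₗ[ZMod p] V) v)
    (h3 : finrank K V = 1) : False := by
  classical
  haveI := finite_H H
  obtain ⟨v₀, hv₀⟩ := exists_ne (0 : V)
  have hspan := (finrank_eq_one_iff_of_nonzero' v₀ hv₀).mp h3
  let C : Subgroup H := Θ.ker
  have hsmul : ∀ k l : K, k • v₀ = l • v₀ → k = l := by
    intro k l h
    have h4 : (k - l) • v₀ = 0 := by rw [sub_smul, h, sub_self]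
    have := (smul_eq_zero.mp h4).resolve_right hv₀
    exact sub_eq_zero.mp this
  choose g hg using fun c : C => hspan (((c : H) : V ≃ₗ[ZMod p] V) v₀)
  have hΘ : ∀ c : C, ∀ k : K, Θ (c : H) k = k := by
    intro c k
    have : Θ (c : H) = 1 := c.2
    rw [this]
    rfl
  let gh : C →* K :=
    { toFun := g
      map_one' := by
        apply hsmul
        rw [hg, one_smul]
        rfl
      map_mul' := fun c d => by
        apply hsmul
        rw [hg, mul_comm, mul_smul, hg]
        have h4 : ((c * d : C) : H) = (c : H) * (d : H) := rfl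
        rw [h4]
        change ((c : H) : V ≃ₗ[ZMod p] V) (((d : H) : V ≃ₗ[ZMod p] V) v₀) = _
        rw [← hg d, h2, hΘ] }
  have hinj : Function.Injective gh := by
    intro c d hcd
    apply Subtype.ext
    apply Subtype.ext
    ext v
    obtain ⟨k, rfl⟩ := hspan v
    rw [h2, h2, hΘ, hΘ, ← hg c, ← hg d]
    have : g c = g d := hcd
    rw [this]
  haveI hCc : IsCyclic C := isCyclic_of_injective_ringHom gh hinj
  have hmap : C.map f = ⊥ := rigid_A4 _ (Subgroup.Normal.map inferInstance f hf)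
    (IsZGroup.of_surjective (f.subgroupMap_surjective C))
  have hle : C ≤ f.ker := (Subgroup.map_eq_bot_iff _).mp hmap
  have hcomm : ∀ x y : H, f x * f y = f y * f x := by
    intro x y
    have h4 : x * y * x⁻¹ * y⁻¹ ∈ C := by
      change Θ _ = 1
      simp only [map_mul, map_inv]
      letI : CommGroup (K ≃ₐ[ZMod p] K) := IsCyclic.commGroup
      rw [mul_comm (Θ x) (Θ y)]
      group
    have h5 := hle h4
    rw [MonoidHom.mem_ker, map_mul, map_mul, map_mul, map_inv, map_inv] at h5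
    have h6 : f x * f y * (f x)⁻¹ = f y := mul_inv_eq_one.mp h5
    rw [mul_inv_eq_iff_eq_mul] at h6
    exact h6
  obtain ⟨a, ha⟩ := a4_exists
  obtain ⟨b, hb, hb1⟩ : ∃ g : alternatingGroup (Fin 4), g ^ 2 = 1 ∧ g ≠ 1 := by decide +kernel
  obtain ⟨x, rfl⟩ := hf a
  obtain ⟨y, rfl⟩ := hf b
  exact a4_noncomm _ _ ha hb hb1 (hcomm x y)

/-- The case of the quotient `Alt(4)`. -/
theorem reg_A4 [Nontrivial V] (hreg : Reg H) (hsolv : Group.IsSolvable H) (h2 : H2 H)
    (f : H →* alternatingGroup (Fin 4)) (hf : Function.Surjective f) :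
    (∃ N : Subgroup H, N.Normal ∧ N.index = 2) ∨
      (Nat.card V = 25 ∧ Nonempty (H ≃* SLtt)) ∨
      (Nat.card V = 121 ∧ Nonempty (H ≃* SLtt × Multiplicative (ZMod 5))) := by
  classical
  haveI := finite_H H
  have hI : ∀ A : Subgroup H, A.Normal → IsCyclic A → ∃ W : Submodule (ZMod p) V, W ≠ ⊥ ∧ W ≠ ⊤ ∧
      ∀ a ∈ A, ∀ v ∈ W, ((a : H) : V ≃ₗ[ZMod p] V) v ∈ W := by
    by_contra hI
    push Not at hI
    obtain ⟨A, hAn, hAc, hA⟩ := hI
    haveI := hAc
    have hAc' : IsMulCommutative A := ⟨⟨fun a b => mul_comm' a b⟩⟩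
    obtain ⟨K, _, _, _, _, _, Θ, h4, h5⟩ := line_of_irred (trans_of_reg hreg) A hAn hAc' (by
      intro W hW
      by_contra hne
      push Not at hne
      obtain ⟨a, ha, v, hv, hnot⟩ := hA W hne.1 hne.2
      exact hnot (hW a ha v hv))
    exact not_line_of_A4 f hf Θ h4 h5
  have hV := Cfsg.Agent.S0688.result H hreg hI hsolv
  have hcard : Nat.card H = Nat.card V - 1 := by
    rw [card_H hreg, Module.natCard_eq_pow_finrank (K := ZMod p) (V := V), Nat.card_zmod]
  have h16 := no16 f hf h2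
  rw [hcard] at h16
  have hk : Nat.card f.ker * 12 = Nat.card H := by
    have h := f.ker.card_mul_index
    rwa [index_of_surj f hf, a4_card] at h
  rcases hV with h | h | h | h
  · right; left
    refine ⟨h, sl23_of f hf ?_ h2⟩
    rw [hcard, h] at hk
    omega
  · rw [h] at h16
    norm_num at h16
  · rcases case120 (G := H) (by rw [hcard, h]) f hf h2 with h4 | h4
    · exact Or.inl h4
    · exact Or.inr (Or.inr ⟨h, h4⟩)
  · rw [h] at h16
    norm_num at h16

theorem a5_not_solvable : ¬ Group.IsSolvable (alternatingGroup (Fin 5)) := by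
  intro h
  have h1 := (IsSimpleGroup.comm_iff_isSolvable (G := alternatingGroup (Fin 5))).mpr h
  have h2 : ∃ a b : alternatingGroup (Fin 5), a * b ≠ b * a := by decide +kernel
  obtain ⟨a, b, hab⟩ := h2
  exact hab (h1 a b)

/-- Part B. -/
theorem reg_B [Nontrivial V] (hreg : Reg H) (hsolv : Group.IsSolvable H) (hp2 : p ≠ 2) :
    (∃ N : Subgroup H, N.Normal ∧ N.index = 2) ∨
      (Nat.card V = 25 ∧ Nonempty (H ≃* SLtt)) ∨
      (Nat.card V = 121 ∧ Nonempty (H ≃* SLtt × Multiplicative (ZMod 5))) := by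
  classical
  haveI := finite_H H
  haveI : Module.Finite (ZMod p) V := Module.Finite.of_finite
  have hodd : Odd p := (Fact.out : p.Prime).odd_of_ne_two hp2
  have hcard : Nat.card H = p ^ finrank (ZMod p) V - 1 := card_H hreg
  have hn0 : finrank (ZMod p) V ≠ 0 := Module.finrank_pos.ne'
  have hev : 2 ∣ Nat.card H := by
    rw [hcard]
    have h1 : Odd (p ^ finrank (ZMod p) V) := hodd.pow
    obtain ⟨k, hk⟩ := h1
    rw [hk]
    omega
  haveI : Nontrivial H := by
    by_contra hne
    rw [not_nontrivial_iff_subsingleton] at hne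
    rw [Nat.card_of_subsingleton (1 : H)] at hev
    omega
  haveI : Nontrivial (Multiplicative V) := inferInstanceAs (Nontrivial V)
  haveI : Finite (Multiplicative V) := inferInstanceAs (Finite V)
  obtain ⟨h2, hodd'⟩ := H_of_act (multAct H) (fun g hg k hk => by
    by_contra h
    have hv : Multiplicative.toAdd k ≠ 0 := h
    exact hg (semireg hreg hv hk))
  haveI := hsolv
  obtain ⟨N, hNn, hNz, hQT⟩ := sol_exists _ H rfl h2 hodd'
  rcases hQT with h | ⟨f, hf, -⟩ | ⟨f, hf, -⟩ | ⟨f, hf, -⟩ | ⟨f, hf, -⟩ | ⟨f, hf, -⟩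
  · subst h
    haveI : IsZGroup H := IsZGroup.of_injective (f := (Subgroup.topEquiv (G := H)).symm.toMonoidHom)
      (Subgroup.topEquiv (G := H)).symm.injective
    exact Or.inl (index2_of_z hev)
  · left
    let Z : Subgroup (DihedralGroup 2) := zpowers (DihedralGroup.r 1)
    have hZ : Z.index = 2 := by
      have h := Z.card_mul_index
      have h1 : Nat.card Z = 2 := by
        rw [Nat.card_zpowers]
        exact orderOf_eq_prime (by decide) (by decide)
      rw [h1, Nat.card_eq_fintype_card, DihedralGroup.card] at h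
      omega
    have hidx : (Z.comap f).index = 2 := by
      rw [Subgroup.index_comap_of_surjective Z hf, hZ]
    exact ⟨_, Subgroup.normal_of_index_eq_two hidx, hidx⟩
  · exact reg_A4 hreg hsolv h2 f hf
  · left
    have hidx : ((alternatingGroup (Fin 4)).comap f).index = 2 := by
      rw [Subgroup.index_comap_of_surjective _ hf, alternatingGroup.index_eq_two]
    exact ⟨_, Subgroup.normal_of_index_eq_two hidx, hidx⟩
  · exact absurd (Group.isSolvable_of_surjective hf) a5_not_solvable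
  · left
    have hidx : ((alternatingGroup (Fin 5)).comap f).index = 2 := by
      rw [Subgroup.index_comap_of_surjective _ hf, alternatingGroup.index_eq_two]
    exact ⟨_, Subgroup.normal_of_index_eq_two hidx, hidx⟩

end Cfsg.Agent.Lib.Hup.RegMain
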