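import Cfsg.Agent.Lib.Hup.Index2

/-!
# A characterization of `SL(2,3)`
-/

set_option autoImplicit false
set_option linter.unusedSectionVars false
set_option linter.style.haveILetI false

namespace Cfsg.Agent.Lib.Hup.SL23

open Subgroup QuaternionGroup
open Cfsg.Agent.Lib.Hup.Index2
open Cfsg.Agent.Lib.Zassen.SolQ Cfsg.Agent.Lib.Zassen.SolQ8

/-- The special linear group. -/
abbrev SLtt := Matrix.SpecialLinearGroup (Fin 2) (ZMod 3)

/-- Decoding of an element of the quaternion group. -/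
def dec {L : Type*} [Group L] (u v : L) : Q8 → L
  | a n => u ^ n.val
  | xa n => u ^ (-n).val * v

theorem dec_a {L : Type*} [Group L] (u v : L) : dec u v (a 1) = u := by
  change u ^ (1 : ZMod (2 * 2)).val = u
  have : (1 : ZMod (2 * 2)).val = 1 := rfl
  rw [this, pow_one]

theorem dec_xa {L : Type*} [Group L] (u v : L) : dec u v (xa 0) = v := by
  change u ^ (-0 : ZMod (2 * 2)).val * v = v
  have : (-0 : ZMod (2 * 2)).val = 0 := rfl
  rw [this, pow_zero, one_mul]

theorem hom_eq_dec {L : Type*} [Group L] (φ : Q8 →* L) (x : Q8) :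
    φ x = dec (φ (a 1)) (φ (xa 0)) x := by
  cases x with
  | a n =>
    change φ (a n) = (φ (a 1)) ^ n.val
    rw [← map_pow, a_one_pow, ZMod.natCast_zmod_val]
  | xa n =>
    change φ (xa n) = (φ (a 1)) ^ (-n).val * φ (xa 0)
    rw [← map_pow, ← map_mul, a_one_pow, ZMod.natCast_zmod_val, a_mul_xa]
    congr 2
    ring

set_option maxRecDepth 100000 in
theorem q8_tau_data : ∀ w₁ w₂ : Q8,
    (∀ x y, dec w₁ w₂ (x * y) = dec w₁ w₂ x * dec w₁ w₂ y) →
    (∀ x, dec w₁ w₂ (dec w₁ w₂ (dec w₁ w₂ x)) = x) →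
    (∃ x, dec w₁ w₂ x ≠ x) →
    ∃ i j : Q8, i * i ≠ 1 ∧ j * i * j⁻¹ = i⁻¹ ∧ j * j = i * i ∧ dec w₁ w₂ i = j ∧
      dec w₁ w₂ j = i * j := by
  decide +kernel

set_option maxRecDepth 100000 in
theorem q8_dec_aut : ∀ i j : Q8, i * i ≠ 1 → j * i * j⁻¹ = i⁻¹ → j * j = i * i →
    (∀ x y, dec i j (x * y) = dec i j x * dec i j y) ∧ (∀ x, ∃ y, dec i j y = x) := by
  decide +kernel

/-- Two homomorphisms agreeing on the generators coincide. -/
theorem q8_hom_ext {L : Type*} [Group L] (φ ψ : Q8 →* L) (h1 : φ (a 1) = ψ (a 1))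
    (h2 : φ (xa 0) = ψ (xa 0)) (x : Q8) : φ x = ψ x := by
  rw [hom_eq_dec φ x, hom_eq_dec ψ x, h1, h2]

/-- An endomorphism given by data on the generators. -/
def endOf (i j : Q8) (h1 : i * i ≠ 1) (h2 : j * i * j⁻¹ = i⁻¹) (h3 : j * j = i * i) : Q8 →* Q8 :=
  MonoidHom.mk' (dec i j) (q8_dec_aut i j h1 h2 h3).1

theorem endOf_apply (i j : Q8) (h1 : i * i ≠ 1) (h2 : j * i * j⁻¹ = i⁻¹) (h3 : j * j = i * i) (x : Q8) :
    endOf i j h1 h2 h3 x = dec i j x := rfl

theorem endOf_inj (i j : Q8) (h1 : i * i ≠ 1) (h2 : j * i * j⁻¹ = i⁻¹) (h3 : j * j = i * i) :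
    Function.Injective (endOf i j h1 h2 h3) :=
  Finite.injective_iff_surjective.mpr (q8_dec_aut i j h1 h2 h3).2

/-- The standard automorphism of order three of `Q8`. -/
def tauZ : Q8 →* Q8 := endOf (xa 0) (a 1 * xa 0) (by decide) (by decide) (by decide)

theorem tauZ_cube : ∀ x : Q8, tauZ (tauZ (tauZ x)) = x := by decide +kernel

theorem tauZ_a : tauZ (a 1) = xa 0 := dec_a (xa 0) (a 1 * xa 0)
theorem tauZ_x : tauZ (xa 0) = a 1 * xa 0 := dec_xa (xa 0) (a 1 * xa 0)

/-- The standard automorphism of order three of `Q8`. -/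
def tauA : Q8 ≃* Q8 where
  toFun := tauZ
  invFun := fun x => tauZ (tauZ x)
  left_inv := tauZ_cube
  right_inv := tauZ_cube
  map_mul' := tauZ.map_mul

theorem tauA_apply (x : Q8) : tauA x = tauZ x := rfl

theorem tauA_cube : tauA ^ 3 = 1 := by
  ext x
  exact tauZ_cube x

/-- A homomorphism from the cyclic group of order three. -/
def hom3 {L : Type*} [Group L] (y : L) (hy : y ^ 3 = 1) : Multiplicative (ZMod 3) →* L where
  toFun g := y ^ (Multiplicative.toAdd g).val
  map_one' := by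
    have : (Multiplicative.toAdd (1 : Multiplicative (ZMod 3))).val = 0 := rfl
    rw [this, pow_zero]
  map_mul' := fun u w => by
    rw [toAdd_mul, ZMod.val_add, ← pow_add]
    exact (pow_eq_pow_mod _ hy).symm

theorem hom3_apply {L : Type*} [Group L] (y : L) (hy : y ^ 3 = 1) (g : Multiplicative (ZMod 3)) :
    hom3 y hy g = y ^ (Multiplicative.toAdd g).val := rfl

/-- The semidirect product. -/
abbrev XX := Q8 ⋊[hom3 tauA tauA_cube] Multiplicative (ZMod 3)

theorem card_XX : Nat.card XX = 24 := by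
  rw [Nat.card_congr SemidirectProduct.equivProd, Nat.card_prod, Nat.card_eq_fintype_card, QuaternionGroup.card]
  simp

/-- Recognition of the semidirect product. -/
theorem iso_of_data {L : Type*} [Group L] [Finite L] (hL : Nat.card L = 24) (α : Q8 →* L) (y : L)
    (hy : y ^ 3 = 1) (h1 : y * α (a 1) * y⁻¹ = α (xa 0))
    (h2 : y * α (xa 0) * y⁻¹ = α (a 1) * α (xa 0))
    (hinj : ∀ (q : Q8) (g : Multiplicative (ZMod 3)), α q * hom3 y hy g = 1 → q = 1 ∧ g = 1) :
    Nonempty (XX ≃* L) := by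
  have hcompat₀ : ∀ x : Q8, α (tauZ x) = y * α x * y⁻¹ := by
    intro x
    let ψ : Q8 →* L := (MulAut.conj y).toMonoidHom.comp α
    have := q8_hom_ext (α.comp tauZ) ψ (by
      change α (tauZ (a 1)) = y * α (a 1) * y⁻¹
      rw [tauZ_a, h1]) (by
      change α (tauZ (xa 0)) = y * α (xa 0) * y⁻¹
      rw [tauZ_x, h2, map_mul]) x
    exact this
  have hcompat₁ : ∀ (k : ℕ) (x : Q8), α ((tauA ^ k) x) = y ^ k * α x * (y ^ k)⁻¹ := by
    intro k
    induction k with
    | zero => intro x; simp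
    | succ k ih =>
      intro x
      rw [pow_succ', MulAut.mul_apply, tauA_apply, hcompat₀, ih, pow_succ']
      group
  let F : XX →* L := SemidirectProduct.lift α (hom3 y hy) (by
    intro g
    ext x
    exact hcompat₁ _ x)
  have hFinj : Function.Injective F := by
    rw [injective_iff_map_eq_one]
    rintro ⟨q, g⟩ hx
    obtain ⟨h3, h4⟩ := hinj q g hx
    exact SemidirectProduct.ext h3 h4
  have hFbij : Function.Bijective F := by
    refine (Nat.bijective_iff_injective_and_card F).mpr ⟨hFinj, ?_⟩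
    rw [card_XX, hL]
  exact ⟨MulEquiv.ofBijective F hFbij⟩

/-! ### The special linear group -/

def i₀ : SLtt := ⟨!![0, 2; 1, 0], by decide⟩
def j₀ : SLtt := ⟨!![1, 1; 1, 2], by decide⟩
def y₀ : SLtt := ⟨!![1, 1; 0, 1], by decide⟩

set_option maxRecDepth 100000 in
theorem dec_hom₀ : ∀ x w : Q8, dec i₀ j₀ (x * w) = dec i₀ j₀ x * dec i₀ j₀ w := by decide +kernel

/-- The embedding of the quaternion group. -/
def alpha₀ : Q8 →* SLtt := MonoidHom.mk' (dec i₀ j₀) dec_hom₀

theorem y₀_cube : y₀ ^ 3 = 1 := by decide +kernel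

set_option maxRecDepth 100000 in
theorem data₀ : ∀ (q : Q8) (g : Multiplicative (ZMod 3)),
    dec i₀ j₀ q * y₀ ^ (Multiplicative.toAdd g).val = 1 → q = 1 ∧ g = 1 := by decide +kernel

theorem card_SLtt : Nat.card SLtt = 24 := by
  rw [Nat.card_eq_fintype_card]
  decide +kernel

theorem iso_SLtt : Nonempty (XX ≃* SLtt) :=
  iso_of_data card_SLtt alpha₀ y₀ y₀_cube
    (by rw [show alpha₀ (a 1) = i₀ from dec_a i₀ j₀, show alpha₀ (xa 0) = j₀ from dec_xa i₀ j₀]; decide +kernel)
    (by rw [show alpha₀ (a 1) = i₀ from dec_a i₀ j₀, show alpha₀ (xa 0) = j₀ from dec_xa i₀ j₀]; decide +kernel)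
    data₀

/-- Recognition of `SL(2,3)`. -/
theorem sl23_of {K₀ : Type*} [Group K₀] [Finite K₀] (f : K₀ →* alternatingGroup (Fin 4))
    (hf : Function.Surjective f) (hk : Nat.card f.ker = 2) (h2 : Cfsg.Agent.Lib.Zassen.SolQ.H2 K₀) :
    Nonempty (K₀ ≃* SLtt) := by
  classical
  haveI : Fact (Nat.Prime 2) := ⟨Nat.prime_two⟩
  haveI : Fact (Nat.Prime 3) := ⟨Nat.prime_three⟩
  have hcard : Nat.card K₀ = 24 := by
    have h := f.ker.card_mul_index
    rw [hk, Cfsg.Agent.Lib.Zassen.QuotU.index_of_surj f hf, a4_card] at h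
    omega
  let P : Subgroup K₀ := V4s.comap f
  haveI hPn : P.Normal := inferInstance
  have hPidx : P.index = 3 := by
    rw [Subgroup.index_comap_of_surjective V4s hf, index_V4s]
  have hPcard : Nat.card P = 8 := by
    have h := P.card_mul_index
    rw [hPidx, hcard] at h
    omega
  have hPp : IsPGroup 2 P := IsPGroup.of_card (n := 3) (by rw [hPcard]; norm_num)
  -- elements of order three
  obtain ⟨y, hy⟩ := exists_prime_orderOf_dvd_card' (p := 3) (G := K₀) (by rw [hcard]; norm_num)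
  have hy3 : y ^ 3 = 1 := by rw [← hy]; exact pow_orderOf_eq_one y
  have hyP : y ∉ P := by
    intro h
    have h1 : orderOf (⟨y, h⟩ : P) = 3 := by
      rw [← hy]
      exact Subgroup.orderOf_mk y h
    have h3 := orderOf_dvd_natCard (⟨y, h⟩ : P)
    rw [h1, hPcard] at h3
    omega
  have hfy : (f y) ^ 2 ≠ 1 := fun h => hyP h
  -- `P` is not cyclic
  have hcyc : ¬ IsCyclic P := by
    intro hc
    let f' : P →* V4s := (f.comp P.subtype).codRestrict V4s (fun x => x.2)
    have hf' : Function.Surjective f' := by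
      rintro ⟨x, hx⟩
      obtain ⟨u, rfl⟩ := hf x
      exact ⟨⟨u, hx⟩, rfl⟩
    haveI : IsCyclic V4s := isCyclic_of_surjective f' hf'
    obtain ⟨g, hg⟩ := IsCyclic.exists_ofOrder_eq_natCard (α := V4s)
    rw [card_V4s] at hg
    have h3 : g ^ 2 = 1 := Subtype.ext g.2
    have h4 := orderOf_dvd_of_pow_eq_one h3
    rw [hg] at h4
    omega
  obtain ⟨n, ⟨e₀⟩⟩ := (h2 P hPp).resolve_left hcyc
  have hn : n = 1 := by
    have h3 : Nat.card P = 4 * 2 ^ n := by
      rw [Nat.card_congr e₀.toEquiv, Nat.card_eq_fintype_card, QuaternionGroup.card]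
    rw [hPcard] at h3
    have h4 : 2 ^ n = 2 ^ 1 := by omega
    exact Nat.pow_right_injective (le_refl 2) h4
  subst hn
  let e : P ≃* Q8 := e₀
  -- the conjugation
  let τ : Q8 ≃* Q8 := MulAut.congr e (MulAut.conjNormal y)
  have hτ : ∀ x : Q8, ((e.symm (τ x) : P) : K₀) = y * (e.symm x : P) * y⁻¹ := by
    intro x
    have : e.symm (τ x) = MulAut.conjNormal y (e.symm x) := by
      change e.symm (e (MulAut.conjNormal y (e.symm x))) = _
      simp
    rw [this, MulAut.conjNormal_apply]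
  have hτ3 : ∀ x, τ (τ (τ x)) = x := by
    intro x
    apply e.symm.injective
    apply Subtype.ext
    rw [hτ, hτ, hτ]
    have : y * (y * (y * ((e.symm x : P) : K₀) * y⁻¹) * y⁻¹) * y⁻¹ =
        y ^ 3 * (e.symm x : P) * (y ^ 3)⁻¹ := by
      simp only [pow_succ, pow_zero]
      group
    rw [this, hy3]
    simp
  have hτ1 : ∃ x, τ x ≠ x := by
    by_contra hall
    push Not at hall
    obtain ⟨g, hg, hg1⟩ : ∃ g : alternatingGroup (Fin 4), g ^ 2 = 1 ∧ g ≠ 1 := by decide +kernel
    obtain ⟨u, rfl⟩ := hf g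
    have huP : u ∈ P := hg
    have h3 := hτ (e ⟨u, huP⟩)
    rw [hall] at h3
    simp only [MulEquiv.symm_apply_apply] at h3
    have h4 : u * y = y * u := by
      rw [eq_mul_inv_iff_mul_eq] at h3
      exact h3
    apply a4_noncomm (f y) (f u) hfy hg hg1
    rw [← map_mul, ← map_mul, h4]
  have hdec : ∀ x, dec (τ (a 1)) (τ (xa 0)) x = τ x := fun x =>
    (hom_eq_dec τ.toMonoidHom x).symm
  obtain ⟨i, j, hi, hji, hjj, hτi, hτj⟩ := q8_tau_data (τ (a 1)) (τ (xa 0))
    (fun x w => by simp only [hdec, map_mul])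
    (fun x => by simp only [hdec, hτ3])
    (by
      obtain ⟨x, hx⟩ := hτ1
      exact ⟨x, by rwa [hdec]⟩)
  rw [hdec] at hτi hτj
  let θ : Q8 →* Q8 := endOf i j hi hji hjj
  have hθ : Function.Injective θ := endOf_inj i j hi hji hjj
  let α : Q8 →* K₀ := P.subtype.comp (e.symm.toMonoidHom.comp θ)
  have hα : Function.Injective α :=
    P.subtype_injective.comp (e.symm.injective.comp hθ)
  have hαa : α (a 1) = (e.symm i : P) := by
    change ((e.symm (dec i j (a 1)) : P) : K₀) = _
    rw [dec_a]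
  have hαx : α (xa 0) = (e.symm j : P) := by
    change ((e.symm (dec i j (xa 0)) : P) : K₀) = _
    rw [dec_xa]
  have hαP : ∀ q, α q ∈ P := fun q => (e.symm (θ q)).2
  have hX := iso_of_data hcard α y hy3
    (by rw [hαa, hαx, ← hτ, hτi])
    (by rw [hαa, hαx, ← hτ, hτj, map_mul]; rfl)
    (by
      intro q g hg
      rw [hom3_apply] at hg
      have hlt : (Multiplicative.toAdd g).val < 3 := ZMod.val_lt _
      have hmem : y ^ (Multiplicative.toAdd g).val ∈ P := by
        have : y ^ (Multiplicative.toAdd g).val = (α q)⁻¹ := eq_inv_of_mul_eq_one_right hg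
        rw [this]
        exact P.inv_mem (hαP q)
      have h0 : (Multiplicative.toAdd g).val = 0 := by
        by_contra h0
        have h3 : y ∈ P := by
          obtain h1 | h1 : (Multiplicative.toAdd g).val = 1 ∨ (Multiplicative.toAdd g).val = 2 := by omega
          · rw [h1, pow_one] at hmem
            exact hmem
          · rw [h1] at hmem
            have : y = (y ^ 2) * (y ^ 2) := by
              rw [← pow_add]
              calc y = y ^ 3 * y := by rw [hy3, one_mul]
                _ = y ^ (2 + 2) := by rw [← pow_succ]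
            rw [this]
            exact P.mul_mem hmem hmem
        exact hyP h3
      rw [h0, pow_zero, mul_one] at hg
      refine ⟨hα (by rw [hg, map_one]), ?_⟩
      have h1 : Multiplicative.toAdd g = 0 := (ZMod.val_eq_zero _).mp h0
      exact h1)
  obtain ⟨X1⟩ := hX
  obtain ⟨X2⟩ := iso_SLtt
  exact ⟨X1.symm.trans X2⟩

end Cfsg.Agent.Lib.Hup.SL23
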